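import Mathlib
import Cfsg.Agent.Lib.Helper83.MinSU.Defs
import Cfsg.Agent.Lib.Helper5.SUPrimitive

/-! # S2152 farm (helper83), piece [BIG] (helper15) -/

set_option autoImplicit false

namespace Cfsg.Agent.Lib.Helper15.MinSU

open Matrix Cfsg.Agent.Lib.Helper13 Cfsg.Agent.Lib.Helper5 Cfsg.Agent.Lib.Helper57.RootSU
  Cfsg.Agent.Lib.Helper83.MinSU

variable {F : Type*} [Field F] [Fintype F] {q m n : ℕ}

namespace BIG

local notation "H" => Cfsg.hermForm m F q

/-- an isotropic vector not orthogonal to a given nonisotropic one -/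
theorem exists_iso_not_perp (hF : Fintype.card F = q ^ 2) (hm : 3 ≤ m) (w : Fin m → F)
    (hw : H w w ≠ 0) : ∃ y, H y y = 0 ∧ H w y ≠ 0 := by
  obtain ⟨u, hu0, hu⟩ := exists_isotropic_ne_zero (n := m) hF hm
  by_cases hwu : H w u = 0
  · obtain ⟨b, hb⟩ := exists_hermForm_ne_zero hF hu0
    by_cases hwb : H w b = 0
    · obtain ⟨l, hl⟩ := exists_isotropic_add_smul hF (u := u) (a := b + w) hu
        (by rw [hermForm_add_left, hwu, add_zero]; exact hb)
      refine ⟨_, hl, ?_⟩
      rw [hermForm_add_right hF, hermForm_add_right hF, hermForm_smul_right, hwu, hwb]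
      simpa using hw
    · obtain ⟨l, hl⟩ := exists_isotropic_add_smul hF (u := u) (a := b) hu hb
      refine ⟨_, hl, ?_⟩
      rw [hermForm_add_right hF, hermForm_smul_right, hwu]
      simpa using hwb
  · exact ⟨u, hu, hwu⟩

/-- the subgroup `D` contains a nonzero isotropic vector -/
theorem exists_iso_mem (hF : Fintype.card F = q ^ 2) (hm : 3 ≤ m) (D : AddSubgroup (Fin m → F))
    (w : Fin m → F) (hw : w ∈ D) (hw0 : w ≠ 0)
    (h : ∀ y : Fin m → F, y ≠ 0 → H y y = 0 →
      ∃ c : F, c ≠ 0 ∧ c + c ^ q = 0 ∧ ∀ z ∈ D, (ut hF y c).1.1 *ᵥ z ∈ D) :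
    ∃ w' ∈ D, w' ≠ 0 ∧ H w' w' = 0 := by
  by_cases hww : H w w = 0
  · exact ⟨w, hw, hw0, hww⟩
  · obtain ⟨y, hy, hwy⟩ := exists_iso_not_perp hF hm w hww
    have hy0 : y ≠ 0 := by
      rintro rfl
      exact hwy (hermForm_zero_right hF w)
    obtain ⟨c, hc0, hc, hD⟩ := h y hy0 hy
    refine ⟨(c * H w y) • y, ?_, smul_ne_zero (mul_ne_zero hc0 hwy) hy0, ?_⟩
    · have h1 := D.sub_mem (hD w hw) hw
      rwa [ut_mulVec hF hy hc, add_sub_cancel_left] at h1
    · rw [hermForm_smul_left, hermForm_smul_right, hy, mul_zero, mul_zero]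

/-- the additive map `u ↦ (h(u,w), h(u,y))` -/
def phi (w y : Fin m → F) : (Fin m → F) →+ F × F :=
  AddMonoidHom.mk' (fun u => (H u w, H u y)) (fun u u' => by
    simp only [hermForm_add_left, Prod.mk_add_mk])

theorem card_ker_phi (hF : Fintype.card F = q ^ 2) (hm : 2 ≤ m) (w y : Fin m → F) :
    q ^ (2 * m - 4) ≤ Nat.card (phi (q := q) w y).ker := by
  have hq := two_le_of_card_sq hF
  have h1 := AddSubgroup.card_mul_index (phi (q := q) w y).ker
  rw [AddSubgroup.index_ker] at h1
  have h2 : Nat.card (phi (q := q) w y).range ≤ q ^ 4 := by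
    have : Nat.card (F × F) = q ^ 4 := by
      rw [Nat.card_prod, Nat.card_eq_fintype_card, hF]; ring
    rw [← this]
    exact Nat.card_le_card_of_injective _ Subtype.val_injective
  have h3 : Nat.card (Fin m → F) = q ^ (2 * m - 4) * q ^ 4 := by
    rw [Nat.card_eq_fintype_card, Fintype.card_fun, Fintype.card_fin, hF, ← pow_mul, ← pow_add]
    congr 1
    omega
  rw [h3] at h1
  have h4 : q ^ (2 * m - 4) * q ^ 4 ≤ Nat.card (phi (q := q) w y).ker * q ^ 4 := by
    rw [← h1]; exact Nat.mul_le_mul_left _ h2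
  exact Nat.le_of_mul_le_mul_right h4 (by positivity)

end BIG

open BIG in
/-- [BIG] -/
theorem big_lemma (hF : Fintype.card F = q ^ 2) (hm : 4 ≤ m) (D : AddSubgroup (Fin m → F))
    (w : Fin m → F) (hw : w ∈ D) (hw0 : w ≠ 0)
    (h : ∀ y : Fin m → F, y ≠ 0 → Cfsg.hermForm m F q y y = 0 →
      ∃ c : F, c ≠ 0 ∧ c + c ^ q = 0 ∧ ∀ z ∈ D, (ut hF y c).1.1 *ᵥ z ∈ D) :
    q ^ m < Nat.card D := by
  have hq := two_le_of_card_sq hF
  obtain ⟨w, hw, hw0, hww⟩ := exists_iso_mem hF (by omega) D w hw hw0 h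
  -- the hyperbolic partner
  obtain ⟨y0, hy0, hy0w⟩ : ∃ y0, Cfsg.hermForm m F q y0 y0 = 0 ∧ Cfsg.hermForm m F q y0 w = 1 := by
    obtain ⟨b, hb⟩ := exists_hermForm_ne_zero hF hw0
    obtain ⟨l, hl⟩ := exists_isotropic_add_smul hF (u := w) (a := b) hww hb
    have h1 : Cfsg.hermForm m F q (b + l • w) w = Cfsg.hermForm m F q b w := by
      rw [hermForm_add_left, hermForm_smul_left, hww, mul_zero, add_zero]
    refine ⟨(Cfsg.hermForm m F q b w)⁻¹ • (b + l • w), ?_, ?_⟩
    · rw [hermForm_smul_left, hermForm_smul_right, hl, mul_zero, mul_zero]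
    · rw [hermForm_smul_left, h1, inv_mul_cancel₀ hb]
  have hwy0 : Cfsg.hermForm m F q w y0 = 1 := by
    rw [← hermForm_swap hF, hy0w, one_pow]
  -- the elements `z_u`
  have hex : ∀ u : (phi (q := q) w y0).ker, ∃ z ∈ D, ∃ c a : F, c ≠ 0 ∧
      z = c • (y0 + u.1 + a • w) := by
    intro u
    have hu : (Cfsg.hermForm m F q u.1 w, Cfsg.hermForm m F q u.1 y0) = 0 := u.2
    have hu1 : Cfsg.hermForm m F q u.1 w = 0 := congrArg Prod.fst hu
    have hu2 : Cfsg.hermForm m F q u.1 y0 = 0 := congrArg Prod.snd hu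
    have hu1' : Cfsg.hermForm m F q w u.1 = 0 := hermForm_eq_zero_comm hF hu1
    have hu2' : Cfsg.hermForm m F q y0 u.1 = 0 := hermForm_eq_zero_comm hF hu2
    obtain ⟨a, ha⟩ := exists_tr hF (-Cfsg.hermForm m F q u.1 u.1)
      (by rw [neg_pow_q hF, hermForm_self_pow hF])
    have hy : Cfsg.hermForm m F q (y0 + u.1 + a • w) (y0 + u.1 + a • w) = 0 := by
      simp only [hermForm_add_left, hermForm_add_right hF, hermForm_smul_left, hermForm_smul_right,
        hy0, hu1, hu2, hu1', hu2', hww, hy0w, hwy0]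
      linear_combination ha
    have hwy : Cfsg.hermForm m F q w (y0 + u.1 + a • w) = 1 := by
      simp only [hermForm_add_right hF, hermForm_smul_right, hu1', hww, hwy0]
      ring
    have hyne : y0 + u.1 + a • w ≠ 0 := by
      intro h0
      rw [h0, hermForm_zero_right hF] at hwy
      exact zero_ne_one hwy
    obtain ⟨c, hc0, hc, hD⟩ := h _ hyne hy
    refine ⟨c • (y0 + u.1 + a • w), ?_, c, a, hc0, rfl⟩
    have h1 := D.sub_mem (hD w hw) hw
    rwa [ut_mulVec hF hy hc, add_sub_cancel_left, hwy, mul_one] at h1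
  choose z hzD c a hc0 hz using hex
  have hzw : ∀ u, Cfsg.hermForm m F q (z u) w = c u := by
    intro u
    have hu : (Cfsg.hermForm m F q u.1 w, Cfsg.hermForm m F q u.1 y0) = 0 := u.2
    have hu1 : Cfsg.hermForm m F q u.1 w = 0 := congrArg Prod.fst hu
    rw [hz u]
    simp only [hermForm_add_left, hermForm_smul_left, hu1, hww, hy0w]
    ring
  have hzy : ∀ u, Cfsg.hermForm m F q (z u) y0 = c u * a u := by
    intro u
    have hu : (Cfsg.hermForm m F q u.1 w, Cfsg.hermForm m F q u.1 y0) = 0 := u.2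
    have hu2 : Cfsg.hermForm m F q u.1 y0 = 0 := congrArg Prod.snd hu
    rw [hz u]
    simp only [hermForm_add_left, hermForm_smul_left, hu2, hy0, hwy0]
    ring
  have hzne : ∀ u, z u ≠ 0 := by
    intro u h0
    have := hzw u
    rw [h0, hermForm_zero_left] at this
    exact hc0 u this.symm
  have hzinj : Function.Injective z := by
    intro u u' huu
    have e1 : c u = c u' := by rw [← hzw, ← hzw, huu]
    have e2 : a u = a u' := by
      have : c u * a u = c u' * a u' := by rw [← hzy, ← hzy, huu]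
      rw [← e1] at this
      exact mul_left_cancel₀ (hc0 u) this
    have e3 := huu
    rw [hz u, hz u', ← e1, ← e2] at e3
    have e4 := smul_right_injective _ (hc0 u) e3
    exact Subtype.ext (add_left_cancel (add_right_cancel e4))
  have hcard : Nat.card (phi (q := q) w y0).ker + 1 ≤ Nat.card D := by
    rw [← Finite.card_option]
    refine Nat.card_le_card_of_injective
      (fun o : Option (phi (q := q) w y0).ker => (match o with
        | none => (0 : D)
        | some u => ⟨z u, hzD u⟩)) ?_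
    intro o o' hoo
    match o, o', hoo with
    | none, none, _ => rfl
    | none, some u, hoo =>
      exact absurd (congrArg Subtype.val hoo).symm (hzne u)
    | some u, none, hoo =>
      exact absurd (congrArg Subtype.val hoo) (hzne u)
    | some u, some u', hoo =>
      exact congrArg some (hzinj (congrArg Subtype.val hoo))
  have h1 := card_ker_phi hF (by omega) w y0
  have h2 : q ^ m ≤ q ^ (2 * m - 4) := Nat.pow_le_pow_right (by omega) (by omega)
  omega

end Cfsg.Agent.Lib.Helper15.MinSU
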