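import Mathlib
import Cfsg.Agent.Lib.Helper83.MinSU.Defs

/-! # S2152 farm (helper83): the group `Sk` of skew elements has order `q` (helper15) -/

set_option autoImplicit false

namespace Cfsg.Agent.Lib.Helper15.MinSU

open Matrix Cfsg.Agent.Lib.Helper13 Cfsg.Agent.Lib.Helper5 Cfsg.Agent.Lib.Helper57.RootSU
  Cfsg.Agent.Lib.Helper83.MinSU

variable {F : Type*} [Field F] [Fintype F] {q m n : ℕ}

/-- the additive group of the skew elements `c + c^q = 0` -/
def Sk (hF : Fintype.card F = q ^ 2) : AddSubgroup F where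
  carrier := {c | c + c ^ q = 0}
  zero_mem' := zero_skew hF
  add_mem' := fun ha hb => skew_add hF ha hb
  neg_mem' := fun ha => skew_neg hF ha

theorem mem_Sk (hF : Fintype.card F = q ^ 2) {c : F} : c ∈ Sk hF ↔ c + c ^ q = 0 := Iff.rfl

/-- the trace `a ↦ a + a^q` -/
def trq (hF : Fintype.card F = q ^ 2) : F →+ F :=
  AddMonoidHom.mk' (fun a => a + a ^ q) (fun a b => by rw [add_pow_q hF]; ring)

theorem card_Sk (hF : Fintype.card F = q ^ 2) : Nat.card (Sk hF) = q := by
  obtain ⟨e, he0, he⟩ := exists_skew_q hF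
  have heq : e ^ q = -e := by linear_combination he
  have hker : (trq hF).ker = Sk hF := by
    ext c
    rfl
  have hrange : Nat.card (trq hF).range = Nat.card (Sk hF) := by
    apply Nat.card_congr
    refine ⟨fun d => ⟨d.1 * e, ?_⟩, fun c => ⟨c.1 / e, ?_⟩, ?_, ?_⟩
    · obtain ⟨a, ha⟩ := d.2
      have hd : d.1 ^ q = d.1 := by
        rw [← ha]
        show (a + a ^ q) ^ q = a + a ^ q
        rw [add_pow_q hF, pow_q_pow_q hF]; ring
      rw [mem_Sk, mul_pow, hd, heq]; ring
    · have hc : c.1 ^ q = -c.1 := by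
        have := c.2
        rw [mem_Sk] at this
        linear_combination this
      obtain ⟨a, ha⟩ := exists_tr hF (c.1 / e) (by rw [div_pow, heq, hc, neg_div_neg_eq])
      exact ⟨a, ha⟩
    · intro d
      apply Subtype.ext
      show d.1 * e / e = d.1
      field_simp
    · intro c
      apply Subtype.ext
      show c.1 / e * e = c.1
      field_simp
  have h1 := AddSubgroup.card_mul_index (trq hF).ker
  rw [AddSubgroup.index_ker, hrange, hker, Nat.card_eq_fintype_card (α := F), hF, ← sq] at h1
  exact Nat.pow_left_injective (n := 2) (by norm_num) h1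

end Cfsg.Agent.Lib.Helper15.MinSU
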