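import Mathlib
import Cfsg.Agent.Lib.Helper83.MinSU.Defs

/-! # S2152 farm (helper83), piece [DUAL] (helper15) -/

set_option autoImplicit false

namespace Cfsg.Agent.Lib.Helper15.MinSU

open Matrix Cfsg.Agent.Lib.Helper13 Cfsg.Agent.Lib.Helper5 Cfsg.Agent.Lib.Helper57.RootSU
  Cfsg.Agent.Lib.Helper83.MinSU

variable {F : Type*} [Field F] [Fintype F] {q m n : ℕ}

namespace DUAL

/-- every skew element is of the form `z^q - z` -/
theorem exists_sub_eq (hF : Fintype.card F = q ^ 2) (s : F) (hs : s + s ^ q = 0) :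
    ∃ z : F, z ^ q - z = s := by
  obtain ⟨e, he0, he⟩ := exists_skew_q hF
  have heq : e ^ q = -e := by linear_combination he
  have hsq : s ^ q = -s := by linear_combination hs
  obtain ⟨a, ha⟩ := exists_tr hF (s / e) (by rw [div_pow, heq, hsq, neg_div_neg_eq])
  refine ⟨-(e * a), ?_⟩
  rw [neg_pow_q hF, mul_pow, heq]
  have : e * (a + a ^ q) = s := by rw [ha]; field_simp
  linear_combination this

theorem exists_functional {p : ℕ} [Fact p.Prime] {M : Type*} [AddCommGroup M] [Module (ZMod p) M]
    (A : AddSubgroup M) (s : M) (hs : s ∉ A) :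
    ∃ f : M →ₗ[ZMod p] ZMod p, f s ≠ 0 ∧ ∀ a ∈ A, f a = 0 := by
  have hs' : s ∉ AddSubgroup.toZModSubmodule p A := by simpa using hs
  obtain ⟨f, hf, hle⟩ := Submodule.exists_dual_map_eq_bot_of_notMem hs' inferInstance
  refine ⟨f, hf, fun a ha => ?_⟩
  have : f a ∈ (AddSubgroup.toZModSubmodule p A).map f :=
    Submodule.mem_map_of_mem (by simpa using ha)
  rw [hle] at this
  simpa using this

end DUAL

/-- [DUAL] -/
theorem iso_lemma (hF : Fintype.card F = q ^ 2) (A : AddSubgroup F)
    (hA : ∃ s : F, s + s ^ q = 0 ∧ s ∉ A) (D : AddSubgroup (Fin m → F))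
    (h : ∀ w ∈ D, ∀ w' ∈ D, Cfsg.hermForm m F q w w' - Cfsg.hermForm m F q w' w ∈ A) :
    Nat.card D ^ 2 ≤ q ^ (2 * m) := by
  obtain ⟨s, hs, hsA⟩ := hA
  obtain ⟨p, hp⟩ := CharP.exists F
  haveI : Fact p.Prime := ⟨CharP.char_is_prime F p⟩
  letI := ZMod.algebra F p
  obtain ⟨f, hfs, hfA⟩ := DUAL.exists_functional (p := p) A s hsA
  let b : (Fin m → F) → (Fin m → F) → F :=
    fun v w => Cfsg.hermForm m F q v w - Cfsg.hermForm m F q w v
  have b_add_left : ∀ v v' w, b (v + v') w = b v w + b v' w := by
    intro v v' w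
    simp only [b, hermForm_add_left, hermForm_add_right hF]; ring
  have b_add_right : ∀ v w w', b v (w + w') = b v w + b v w' := by
    intro v w w'
    simp only [b, hermForm_add_left, hermForm_add_right hF]; ring
  have b_swap : ∀ v w, b v w = - b w v := by
    intro v w
    simp only [b]; ring
  let B : LinearMap.BilinForm (ZMod p) (Fin m → F) :=
    LinearMap.mk₂ (ZMod p) (fun v w => f (b v w))
      (fun v v' w => by rw [b_add_left, map_add])
      (fun c v w => ZMod.map_smul (AddMonoidHom.mk' (fun v => f (b v w))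
        (fun v v' => by rw [b_add_left, map_add])) c v)
      (fun v w w' => by rw [b_add_right, map_add])
      (fun c v w => ZMod.map_smul (AddMonoidHom.mk' (fun w => f (b v w))
        (fun w w' => by rw [b_add_right, map_add])) c w)
  have hB : ∀ v w, B v w = f (b v w) := fun v w => rfl
  have hleft : ∀ x : Fin m → F, (∀ y, f (b x y) = 0) → x = 0 := by
    intro x hx
    by_contra hx0
    obtain ⟨w0, hw0⟩ := exists_hermForm_ne_zero hF hx0
    obtain ⟨z, hz⟩ := DUAL.exists_sub_eq hF s hs
    apply hfs
    have h1 := hx ((z / Cfsg.hermForm m F q w0 x) • w0)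
    have h2 : b x ((z / Cfsg.hermForm m F q w0 x) • w0) = s := by
      have e1 : Cfsg.hermForm m F q ((z / Cfsg.hermForm m F q w0 x) • w0) x = z := by
        rw [hermForm_smul_left, div_mul_cancel₀ _ hw0]
      simp only [b]
      rw [← hermForm_swap hF, e1, hz]
    rwa [h2] at h1
  have hnd : B.Nondegenerate := by
    constructor
    · intro x hx
      exact hleft x hx
    · intro y hy
      apply hleft y
      intro x
      have := hy x
      rw [hB, b_swap, map_neg, neg_eq_zero] at this
      exact this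
  set D' := AddSubgroup.toZModSubmodule p D with hD'
  have hc1 : Nat.card D = Nat.card D' :=
    Nat.card_congr (Equiv.subtypeEquivRight (fun v => by simp [hD']))
  have hle : D' ≤ B.orthogonal D' := by
    intro v hv
    rw [LinearMap.BilinForm.mem_orthogonal_iff]
    intro n hn
    show B n v = 0
    rw [hB]
    exact hfA _ (h n (by simpa [hD'] using hn) v (by simpa [hD'] using hv))
  have h1 := Module.natCard_eq_pow_finrank (K := ZMod p) (V := D')
  have h2 := Module.natCard_eq_pow_finrank (K := ZMod p) (V := B.orthogonal D')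
  have h3 := Module.natCard_eq_pow_finrank (K := ZMod p) (V := (Fin m → F))
  have h4 := LinearMap.BilinForm.finrank_orthogonal hnd D'
  have h5 : Module.finrank (ZMod p) D' ≤ Module.finrank (ZMod p) (Fin m → F) :=
    Submodule.finrank_le D'
  have h6 : Nat.card (Fin m → F) = q ^ (2 * m) := by
    rw [Nat.card_eq_fintype_card, Fintype.card_fun, Fintype.card_fin, hF, pow_mul]
  have h7 : Nat.card D' ≤ Nat.card (B.orthogonal D') :=
    Nat.card_le_card_of_injective _ (Submodule.inclusion_injective hle)
  calc Nat.card D ^ 2 = Nat.card D' * Nat.card D' := by rw [hc1, sq]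
    _ ≤ Nat.card D' * Nat.card (B.orthogonal D') := Nat.mul_le_mul_left _ h7
    _ = q ^ (2 * m) := by
      rw [h1, h2, h4, ← pow_add, Nat.add_sub_cancel' h5, ← h3, h6]

end Cfsg.Agent.Lib.Helper15.MinSU
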