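import Mathlib
import Cfsg.Agent.Lib.Helper83.MinSU.Defs
import Cfsg.Agent.Lib.Helper15.MinSU.Sk

/-! # S2152 farm (helper83), piece [IDX] (helper15) -/

set_option autoImplicit false

namespace Cfsg.Agent.Lib.Helper15.MinSU

open Matrix Cfsg.Agent.Lib.Helper13 Cfsg.Agent.Lib.Helper5 Cfsg.Agent.Lib.Helper57.RootSU
  Cfsg.Agent.Lib.Helper83.MinSU

variable {F : Type*} [Field F] [Fintype F] {q m n : ℕ}

namespace IDX

theorem card_of_fibers {X Y : Type*} [Finite X] (f : X → Y) (r : ℕ)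
    (h : ∀ x0 : X, Nat.card {x // f x = f x0} = r) : Nat.card X = Nat.card (Set.range f) * r := by
  classical
  haveI : Fintype (Set.range f) := Fintype.ofFinite _
  rw [← Nat.card_congr (Equiv.sigmaFiberEquiv (Set.rangeFactorization f)), Nat.card_sigma]
  have : ∀ y ∈ (Finset.univ : Finset (Set.range f)),
      Nat.card {x // Set.rangeFactorization f x = y} = r := by
    rintro ⟨y, x0, rfl⟩ _
    rw [← h x0]
    exact Nat.card_congr (Equiv.subtypeEquivRight (fun x => Subtype.ext_iff))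
  rw [Finset.sum_congr rfl this, Finset.sum_const, Finset.card_univ, smul_eq_mul,
    Nat.card_eq_fintype_card]

variable {P : Type*} [Group P] (L : ULoc m F q P) (S : Subgroup P)

theorem dec_unique (hF : Fintype.card F = q ^ 2) {w w' : Fin m → F} {a a' : F}
    {l l' : Cfsg.SU m F q} (hv : Val q w a) (hv' : Val q w' a')
    (h : L.rho w a * L.eps l = L.rho w' a' * L.eps l') : w = w' ∧ a = a' ∧ l = l' := by
  have h1 : L.rho (-w' + w) (a' ^ q + a - Cfsg.hermForm m F q w (-w')) * L.eps (l * l'⁻¹) = 1 := by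
    rw [← L.rho_mul _ _ _ _ (hv'.inv hF) hv, ← L.rho_inv hF hv', map_mul, map_inv]
    calc (L.rho w' a')⁻¹ * L.rho w a * (L.eps l * (L.eps l')⁻¹)
        = (L.rho w' a')⁻¹ * (L.rho w a * L.eps l) * (L.eps l')⁻¹ := by group
      _ = 1 := by rw [h]; group
  obtain ⟨e1, e2, e3⟩ := L.dec_inj _ _ _ ((hv'.inv hF).add hF hv) h1
  have hw : w = w' := by
    have : w - w' = 0 := by rw [← e1]; abel
    exact sub_eq_zero.mp this
  subst hw
  refine ⟨rfl, ?_, mul_inv_eq_one.mp e3⟩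
  rw [hermForm_neg_right hF] at e2
  unfold Val at hv'
  linear_combination e2 - hv'

/-- level 1 -/
theorem lvl1 [Finite P] :
    Nat.card S = Nat.card (L.Lam S) * Nat.card {g : P // g ∈ S ∧ L.lam g = 1} := by
  have hr : Set.range (fun s : S => L.lam s.1) = (L.Lam S : Set Fˣ) := by
    ext y
    constructor
    · rintro ⟨s, rfl⟩
      exact ⟨s.1, s.2, rfl⟩
    · rintro ⟨s, hs, rfl⟩
      exact ⟨⟨s, hs⟩, rfl⟩
  rw [card_of_fibers (fun s : S => L.lam s.1) (Nat.card {g : P // g ∈ S ∧ L.lam g = 1}),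
    Nat.card_congr (Equiv.setCongr hr)]
  · rfl
  · intro s0
    apply Nat.card_congr
    refine ⟨fun s => ⟨s0.1⁻¹ * s.1.1, S.mul_mem (S.inv_mem s0.2) s.1.2, ?_⟩,
      fun g => ⟨⟨s0.1 * g.1, S.mul_mem s0.2 g.2.1⟩, ?_⟩, ?_, ?_⟩
    · rw [map_mul, map_inv, s.2, inv_mul_cancel]
    · show L.lam (s0.1 * g.1) = L.lam s0.1
      rw [map_mul, g.2.2, mul_one]
    · intro s
      exact Subtype.ext (Subtype.ext (by simp))
    · intro g
      exact Subtype.ext (by simp)

/-- level 2a -/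
theorem lvl2a (hF : Fintype.card F = q ^ 2) :
    Nat.card {g : P // g ∈ S ∧ L.lam g = 1} =
      Nat.card {t : (Fin m → F) × F × Cfsg.SU m F q //
        Val q t.1 t.2.1 ∧ L.rho t.1 t.2.1 * L.eps t.2.2 ∈ S} := by
  symm
  apply Nat.card_congr
  refine Equiv.ofBijective (fun t => ⟨L.rho t.1.1 t.1.2.1 * L.eps t.1.2.2, t.2.2, by
    rw [map_mul, L.lam_rho _ _ t.2.1, L.lam_eps, one_mul]⟩) ⟨?_, ?_⟩
  · rintro ⟨⟨w, a, l⟩, hv, hs⟩ ⟨⟨w', a', l'⟩, hv', hs'⟩ h
    have h' : L.rho w a * L.eps l = L.rho w' a' * L.eps l' := congrArg Subtype.val h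
    obtain ⟨rfl, rfl, rfl⟩ := dec_unique L hF hv hv' h'
    rfl
  · rintro ⟨g, hg, hl⟩
    obtain ⟨w, a, l, hv, rfl⟩ := L.ker_dec g hl
    exact ⟨⟨(w, a, l), hv, hg⟩, rfl⟩

/-- level 2b -/
theorem lvl2b (hF : Fintype.card F = q ^ 2) :
    Nat.card {t : (Fin m → F) × F × Cfsg.SU m F q //
        Val q t.1 t.2.1 ∧ L.rho t.1 t.2.1 * L.eps t.2.2 ∈ S} =
      Nat.card (L.S1 hF S) *
        Nat.card {u : (Fin m → F) × F // Val q u.1 u.2 ∧ L.rho u.1 u.2 ∈ S} := by
  have hr : Set.range (fun t : {t : (Fin m → F) × F × Cfsg.SU m F q //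
        Val q t.1 t.2.1 ∧ L.rho t.1 t.2.1 * L.eps t.2.2 ∈ S} => t.1.2.2)
      = (L.S1 hF S : Set (Cfsg.SU m F q)) := by
    ext y
    constructor
    · rintro ⟨t, rfl⟩
      exact ⟨t.1.1, t.1.2.1, t.2.1, t.2.2⟩
    · rintro ⟨w, a, hv, hs⟩
      exact ⟨⟨(w, a, y), hv, hs⟩, rfl⟩
  rw [card_of_fibers (fun t : {t : (Fin m → F) × F × Cfsg.SU m F q //
        Val q t.1 t.2.1 ∧ L.rho t.1 t.2.1 * L.eps t.2.2 ∈ S} => t.1.2.2)
      (Nat.card {u : (Fin m → F) × F // Val q u.1 u.2 ∧ L.rho u.1 u.2 ∈ S}),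
    Nat.card_congr (Equiv.setCongr hr)]
  · rfl
  · rintro ⟨⟨w0, a0, l0⟩, hv0, hs0⟩
    apply le_antisymm
    · refine Nat.card_le_card_of_injective (fun t =>
        ⟨(t.1.1.1 + -w0, t.1.1.2.1 + a0 ^ q - Cfsg.hermForm m F q (-w0) t.1.1.1),
          t.1.2.1.add hF (hv0.inv hF), ?_⟩) ?_
      · show L.rho (t.1.1.1 + -w0) (t.1.1.2.1 + a0 ^ q - Cfsg.hermForm m F q (-w0) t.1.1.1) ∈ S
        rw [← L.rho_mul _ _ _ _ t.1.2.1 (hv0.inv hF), ← L.rho_inv hF hv0]
        have h1 := S.mul_mem t.1.2.2 (S.inv_mem hs0)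
        have h2 : t.1.1.2.2 = l0 := t.2
        rw [h2] at h1
        have h3 : L.rho t.1.1.1 t.1.1.2.1 * L.eps l0 * (L.rho w0 a0 * L.eps l0)⁻¹
            = L.rho t.1.1.1 t.1.1.2.1 * (L.rho w0 a0)⁻¹ := by group
        rwa [h3] at h1
      · rintro ⟨⟨⟨w, a, l⟩, hv, hs⟩, hl⟩ ⟨⟨⟨w', a', l'⟩, hv', hs'⟩, hl'⟩ h
        have hl1 : l = l0 := hl
        have hl2 : l' = l0 := hl'
        have h' := congrArg Subtype.val h
        simp only [Prod.mk.injEq] at h'
        obtain ⟨e1, e2⟩ := h'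
        have e3 : w = w' := add_right_cancel e1
        subst e3
        have e4 : a = a' := by linear_combination e2
        subst e4
        subst hl1
        subst hl2
        rfl
    · refine Nat.card_le_card_of_injective (fun u =>
        ⟨⟨(u.1.1 + w0, u.1.2 + a0 - Cfsg.hermForm m F q w0 u.1.1, l0),
          u.2.1.add hF hv0, ?_⟩, rfl⟩) ?_
      · show L.rho (u.1.1 + w0) (u.1.2 + a0 - Cfsg.hermForm m F q w0 u.1.1) * L.eps l0 ∈ S
        rw [← L.rho_mul _ _ _ _ u.2.1 hv0, mul_assoc]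
        exact S.mul_mem u.2.2 hs0
      · rintro ⟨⟨w, a⟩, hv, hs⟩ ⟨⟨w', a'⟩, hv', hs'⟩ h
        have h' := congrArg (fun z => z.1.1) h
        simp only [Prod.mk.injEq, and_true] at h'
        obtain ⟨e1, e2⟩ := h'
        have e3 : w = w' := add_right_cancel e1
        subst e3
        have e4 : a = a' := by linear_combination e2
        subst e4
        rfl

/-- level 3 -/
theorem lvl3 (hF : Fintype.card F = q ^ 2) :
    Nat.card {u : (Fin m → F) × F // Val q u.1 u.2 ∧ L.rho u.1 u.2 ∈ S} =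
      Nat.card (L.Bb hF S) * Nat.card (L.A hF S) := by
  have hr : Set.range (fun u : {u : (Fin m → F) × F // Val q u.1 u.2 ∧ L.rho u.1 u.2 ∈ S} => u.1.1)
      = (L.Bb hF S : Set (Fin m → F)) := by
    ext y
    constructor
    · rintro ⟨u, rfl⟩
      exact ⟨u.1.2, u.2.1, u.2.2⟩
    · rintro ⟨a, hv, hs⟩
      exact ⟨⟨(y, a), hv, hs⟩, rfl⟩
  rw [card_of_fibers (fun u : {u : (Fin m → F) × F // Val q u.1 u.2 ∧ L.rho u.1 u.2 ∈ S} => u.1.1)
      (Nat.card (L.A hF S)), Nat.card_congr (Equiv.setCongr hr)]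
  · rfl
  · rintro ⟨⟨w0, a0⟩, hv0, hs0⟩
    apply le_antisymm
    · refine Nat.card_le_card_of_injective (fun u => (⟨u.1.1.2 - a0, ?_, ?_⟩ : L.A hF S)) ?_
      · have h1 := u.1.2.1
        have h2 : u.1.1.1 = w0 := u.2
        rw [h2] at h1
        unfold Val at h1 hv0
        rw [sub_pow_q hF]
        linear_combination h1 - hv0
      · have h1 := u.1.2.1
        have h3 := u.1.2.2
        have h2 : u.1.1.1 = w0 := u.2
        rw [h2] at h1 h3
        have h4 := S.mul_mem h3 (S.inv_mem hs0)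
        rw [L.rho_inv hF hv0, L.rho_mul _ _ _ _ h1 (hv0.inv hF), add_neg_cancel,
          hermForm_neg_left] at h4
        have h5 : u.1.1.2 + a0 ^ q - -Cfsg.hermForm m F q w0 w0 = u.1.1.2 - a0 := by
          unfold Val at hv0
          linear_combination hv0
        rwa [h5] at h4
      · rintro ⟨⟨⟨w, a⟩, hv, hs⟩, hw⟩ ⟨⟨⟨w', a'⟩, hv', hs'⟩, hw'⟩ h
        have hw1 : w = w0 := hw
        have hw2 : w' = w0 := hw'
        have h' : a - a0 = a' - a0 := congrArg Subtype.val h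
        have e4 : a = a' := sub_left_injective h'
        subst e4
        subst hw1
        subst hw2
        rfl
    · refine Nat.card_le_card_of_injective (fun b => ⟨⟨(w0, b.1 + a0), ?_, ?_⟩, rfl⟩) ?_
      · show Val q w0 (b.1 + a0)
        have hb := b.2.1
        unfold Val at hv0 ⊢
        rw [add_pow_q hF]
        linear_combination hb + hv0
      · show L.rho w0 (b.1 + a0) ∈ S
        have h4 := S.mul_mem b.2.2 hs0
        rwa [L.rho_mul _ _ _ _ (Val.of_skew hF b.2.1) hv0, zero_add, hermForm_zero_right hF,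
          sub_zero] at h4
      · intro b b' h
        have h' := congrArg (fun z => z.1.1.2) h
        exact Subtype.ext (add_right_cancel h')

theorem card_S [Finite P] (hF : Fintype.card F = q ^ 2) :
    Nat.card S = Nat.card (L.Lam S) *
      (Nat.card (L.S1 hF S) * (Nat.card (L.Bb hF S) * Nat.card (L.A hF S))) := by
  rw [lvl1 L S, lvl2a L S hF, lvl2b L S hF, lvl3 L S hF]

include L in
theorem card_P [Finite P] (hF : Fintype.card F = q ^ 2) :
    Nat.card P = (q ^ 2 - 1) * (Nat.card (Cfsg.SU m F q) * (q ^ (2 * m) * q)) := by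
  have h := card_S L ⊤ hF
  have h1 : L.Lam ⊤ = ⊤ := by
    rw [eq_top_iff]
    intro t _
    obtain ⟨g, rfl⟩ := L.lam_surj t
    exact ⟨g, trivial, rfl⟩
  have h2 : L.S1 hF ⊤ = ⊤ := by
    rw [eq_top_iff]
    intro l _
    exact ⟨0, 0, Val.zero hF, trivial⟩
  have h3 : L.Bb hF ⊤ = ⊤ := by
    rw [eq_top_iff]
    intro w _
    obtain ⟨a, ha⟩ := exists_tr hF (-Cfsg.hermForm m F q w w)
      (by rw [neg_pow_q hF, hermForm_self_pow hF])
    exact ⟨a, by unfold Val; rw [ha]; ring, trivial⟩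
  have h4 : L.A hF ⊤ = Sk hF := by
    ext a
    exact ⟨fun h => h.1, fun h => ⟨h, trivial⟩⟩
  rw [h1, h2, h3, h4, Subgroup.card_top, Subgroup.card_top, Subgroup.card_top, AddSubgroup.card_top,
    card_Sk hF] at h
  rw [h, Nat.card_units, Nat.card_eq_fintype_card (α := F), hF,
    Nat.card_eq_fintype_card (α := Fin m → F), Fintype.card_fun, Fintype.card_fin, hF, ← pow_mul]

end IDX

variable {P : Type*} [Group P] [Finite P] (L : ULoc m F q P) (S : Subgroup P)

/-- [IDX] -/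
theorem index_formula (hF : Fintype.card F = q ^ 2) :
    S.index * (Nat.card (L.Bb hF S) * Nat.card (L.A hF S) * Nat.card (L.Lam S))
      = q ^ (2 * m + 1) * (q ^ 2 - 1) * (L.S1 hF S).index := by
  have h1 := IDX.card_S L S hF
  have h2 := IDX.card_P L hF
  have h3 := S.index_mul_card
  have h4 := (L.S1 hF S).index_mul_card
  have hpos : 0 < Nat.card (L.S1 hF S) := Nat.card_pos
  apply Nat.eq_of_mul_eq_mul_right hpos
  calc S.index * (Nat.card (L.Bb hF S) * Nat.card (L.A hF S) * Nat.card (L.Lam S))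
        * Nat.card (L.S1 hF S)
      = S.index * Nat.card S := by rw [h1]; ring
    _ = (q ^ 2 - 1) * (Nat.card (Cfsg.SU m F q) * (q ^ (2 * m) * q)) := by rw [h3, h2]
    _ = q ^ (2 * m + 1) * (q ^ 2 - 1) * (L.S1 hF S).index * Nat.card (L.S1 hF S) := by
      rw [← h4, pow_succ]; ring

end Cfsg.Agent.Lib.Helper15.MinSU
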