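import Mathlib
import Cfsg.Agent.Lib.Helper83.MinSU.Defs
import Cfsg.Agent.Lib.Helper15.MinSU.Sk
import Cfsg.Agent.Lib.Helper5.SUOrder

/-! # S2152 farm (helper83), piece [LAM] (helper15) -/

set_option autoImplicit false

namespace Cfsg.Agent.Lib.Helper15.MinSU

open Matrix Cfsg.Agent.Lib.Helper13 Cfsg.Agent.Lib.Helper5 Cfsg.Agent.Lib.Helper57.RootSU
  Cfsg.Agent.Lib.Helper83.MinSU

variable {F : Type*} [Field F] [Fintype F] {q m n : ℕ}

namespace LAM

theorem norm_pow_q (hF : Fintype.card F = q ^ 2) (s : F) : (s ^ (q + 1)) ^ q = s ^ (q + 1) := by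
  rw [← pow_mul, mul_comm, pow_mul, pow_succ, pow_q_pow_q hF, pow_succ, mul_comm]

variable {P : Type*} [Group P] (L : ULoc m F q P) (S : Subgroup P)

theorem A_inv (hF : Fintype.card F = q ^ 2) (t : Fˣ) (ht : t ∈ L.Lam S) (a : F)
    (ha : a ∈ L.A hF S) : (t : F) ^ (q + 1) * a ∈ L.A hF S := by
  obtain ⟨s, hs, rfl⟩ := ht
  refine ⟨?_, ?_⟩
  · rw [mul_pow, norm_pow_q hF, ← mul_add, ha.1, mul_zero]
  · rw [← L.conj_center s a ha.1]
    exact S.mul_mem (S.mul_mem hs ha.2) (S.inv_mem hs)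

/-- the multipliers of `A` in `F_q` -/
def K0 (hF : Fintype.card F = q ^ 2) (A : AddSubgroup F) : AddSubgroup F where
  carrier := {c | c ^ q = c ∧ ∀ a ∈ A, c * a ∈ A}
  zero_mem' := by
    have := two_le_of_card_sq hF
    exact ⟨zero_pow (by omega), fun a _ => by rw [zero_mul]; exact A.zero_mem⟩
  add_mem' := by
    rintro c d ⟨hc, hc'⟩ ⟨hd, hd'⟩
    exact ⟨by rw [add_pow_q hF, hc, hd], fun a ha => by
      rw [add_mul]; exact A.add_mem (hc' a ha) (hd' a ha)⟩
  neg_mem' := by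
    rintro c ⟨hc, hc'⟩
    exact ⟨by rw [neg_pow_q hF, hc], fun a ha => by
      rw [neg_mul]; exact A.neg_mem (hc' a ha)⟩

theorem card_K0_mul (hF : Fintype.card F = q ^ 2) (A : AddSubgroup F) (hA : A ≤ Sk hF) (x : F)
    (hx : x ∈ Sk hF) (hxA : x ∉ A) : Nat.card (K0 hF A) * Nat.card A ≤ q := by
  refine le_of_le_of_eq ?_ (card_Sk hF)
  rw [← Nat.card_prod]
  have key : ∀ d ∈ K0 hF A, d * x ∈ A → d = 0 := by
    intro d hd hdx
    by_contra hd0
    have hinj : Function.Injective (fun a : A => (⟨d * a.1, hd.2 a.1 a.2⟩ : A)) := by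
      intro a b hab
      apply Subtype.ext
      exact mul_left_cancel₀ hd0 (congrArg Subtype.val hab)
    obtain ⟨a, ha⟩ := (Finite.injective_iff_surjective.mp hinj) ⟨d * x, hdx⟩
    have : a.1 = x := mul_left_cancel₀ hd0 (congrArg Subtype.val ha)
    exact hxA (this ▸ a.2)
  refine Nat.card_le_card_of_injective
    (fun u : K0 hF A × A => (⟨u.1.1 * x + u.2.1, ?_⟩ : Sk hF)) ?_
  · refine (Sk hF).add_mem ?_ (hA u.2.2)
    rw [mem_Sk] at hx ⊢
    rw [mul_pow, u.1.2.1, ← mul_add, hx, mul_zero]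
  · rintro ⟨c, a⟩ ⟨c', a'⟩ h
    have h1 : c.1 * x + a.1 = c'.1 * x + a'.1 := congrArg Subtype.val h
    have h2 : (c.1 - c'.1) * x ∈ A := by
      have : (c.1 - c'.1) * x = a'.1 - a.1 := by linear_combination h1
      rw [this]; exact A.sub_mem a'.2 a.2
    have h3 := key _ ((K0 hF A).sub_mem c.2 c'.2) h2
    have h4 : c.1 = c'.1 := sub_eq_zero.mp h3
    have h5 : a.1 = a'.1 := by
      rw [h4] at h1
      exact add_left_cancel h1
    exact Prod.ext (Subtype.ext h4) (Subtype.ext h5)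

end LAM

variable {P : Type*} [Group P] [Finite P] (L : ULoc m F q P) (S : Subgroup P)

/-- [LAM] -/
theorem lam_A (hF : Fintype.card F = q ^ 2) (hA : ∃ a, a + a ^ q = 0 ∧ L.rho 0 a ∉ S) :
    2 * Nat.card (L.A hF S) ≤ q ∧
      (Nat.card (L.Lam S) + (q + 1)) * Nat.card (L.A hF S) ≤ (q + 1) * q := by
  obtain ⟨x, hx, hxS⟩ := hA
  have hAS : L.A hF S ≤ Sk hF := fun a ha => ha.1
  have hxA : x ∉ L.A hF S := fun h => hxS h.2
  have hK := LAM.card_K0_mul hF (L.A hF S) hAS x hx hxA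
  let f : ↥(L.Lam S) →* Fˣ := (powMonoidHom (q + 1)).comp (L.Lam S).subtype
  have h1 : Nat.card (L.Lam S) = Nat.card f.ker * Nat.card f.range := by
    rw [← Subgroup.index_ker, Subgroup.card_mul_index]
  have h2 : Nat.card f.ker ≤ q + 1 := by
    rw [← card_norm_one_units hF]
    refine Nat.card_le_card_of_injective
      (fun t : f.ker => (⟨t.1.1, ?_⟩ : {x : Fˣ // x ^ (q + 1) = 1})) ?_
    · exact t.2
    · intro t t' h
      have h' : (t.1.1 : Fˣ) = t'.1.1 :=
        congrArg (fun z : {x : Fˣ // x ^ (q + 1) = 1} => z.1) h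
      exact Subtype.ext (Subtype.ext h')
  have h3 : Nat.card f.range + 1 ≤ Nat.card (LAM.K0 hF (L.A hF S)) := by
    rw [← Finite.card_option]
    have hmem : ∀ t : f.range, ((t.1 : Fˣ) : F) ∈ LAM.K0 hF (L.A hF S) := by
      rintro ⟨t, s, rfl⟩
      refine ⟨?_, fun a ha => ?_⟩
      · show (((s.1 ^ (q + 1) : Fˣ) : F)) ^ q = ((s.1 ^ (q + 1) : Fˣ) : F)
        rw [Units.val_pow_eq_pow_val, LAM.norm_pow_q hF]
      · show ((s.1 ^ (q + 1) : Fˣ) : F) * a ∈ L.A hF S
        rw [Units.val_pow_eq_pow_val]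
        exact LAM.A_inv L S hF s.1 s.2 a ha
    refine Nat.card_le_card_of_injective
      (fun o : Option f.range => (match o with
        | none => (0 : LAM.K0 hF (L.A hF S))
        | some t => ⟨((t.1 : Fˣ) : F), hmem t⟩)) ?_
    intro o o' h
    match o, o', h with
    | none, none, _ => rfl
    | none, some t, h =>
      exact absurd (congrArg Subtype.val h).symm (Units.ne_zero t.1)
    | some t, none, h =>
      exact absurd (congrArg Subtype.val h) (Units.ne_zero t.1)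
    | some t, some t', h =>
      exact congrArg some (Subtype.ext (Units.ext (congrArg Subtype.val h)))
  have h4 : 1 ≤ Nat.card f.range := Nat.card_pos
  constructor
  · calc 2 * Nat.card (L.A hF S) ≤ Nat.card (LAM.K0 hF (L.A hF S)) * Nat.card (L.A hF S) :=
        Nat.mul_le_mul_right _ (by omega)
      _ ≤ q := hK
  · calc (Nat.card (L.Lam S) + (q + 1)) * Nat.card (L.A hF S)
        ≤ ((q + 1) * Nat.card f.range + (q + 1)) * Nat.card (L.A hF S) := by
          apply Nat.mul_le_mul_right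
          rw [h1]
          exact Nat.add_le_add_right (Nat.mul_le_mul_right _ h2) _
      _ = (q + 1) * ((Nat.card f.range + 1) * Nat.card (L.A hF S)) := by ring
      _ ≤ (q + 1) * (Nat.card (LAM.K0 hF (L.A hF S)) * Nat.card (L.A hF S)) :=
          Nat.mul_le_mul_left _ (Nat.mul_le_mul_right _ h3)
      _ ≤ (q + 1) * q := Nat.mul_le_mul_left _ hK

end Cfsg.Agent.Lib.Helper15.MinSU
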