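import Mathlib
import Cfsg.Agent.Lib.Helper83.MinSU.DefsO
import Cfsg.Agent.Lib.Helper63.MinSU.Tools
import Cfsg.Agent.Lib.Helper54.MinSU.ORB2

/-! # S2151 farm (helper83), piece [oEVEN3] (helper15) -/

set_option autoImplicit false

namespace Cfsg.Agent.Lib.Helper15.MinSU.O

open Matrix Cfsg.Agent.Lib.Helper13 Cfsg.Agent.Lib.Helper5 Cfsg.Agent.Lib.Helper57.RootSU
  Cfsg.Agent.Lib.Helper83.MinSU Cfsg.Agent.Lib.Helper63.MinSU

variable {F : Type*} [Field F] [Fintype F] {q m n : ℕ}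

namespace EVEN3

theorem card_orbit_iso_odd (hF : Fintype.card F = q ^ 2) (hn : 3 ≤ n) (ho : ¬ Even n)
    (x : Fin n → F) (hx0 : x ≠ 0) (hx : Cfsg.hermForm n F q x x = 0) :
    Nat.card (suOrbit q x) = (q ^ n + 1) * (q ^ (n - 1) - 1) := by
  classical
  have h1 := Cfsg.Agent.S0285.result hF n
  rw [if_neg ho] at h1
  have h2 : {v : Fin n → F | Cfsg.hermForm n F q v v = 0}
      = insert 0 (suOrbit q x) := by
    ext v
    rw [Set.mem_insert_iff, mem_orbit_iso hF hn x hx0 hx]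
    constructor
    · intro hv
      by_cases hv0 : v = 0
      · left; exact hv0
      · right; exact ⟨hv0, hv⟩
    · rintro (rfl | ⟨-, hv⟩)
      · exact hermForm_zero_left _
      · exact hv
  have h3 : (0 : Fin n → F) ∉ suOrbit q x := by
    rw [mem_orbit_iso hF hn x hx0 hx]
    exact fun h => h.1 rfl
  have h4 : Nat.card {v : Fin n → F // Cfsg.hermForm n F q v v = 0}
      = {v : Fin n → F | Cfsg.hermForm n F q v v = 0}.ncard := rfl
  rw [h4, h2, Set.ncard_insert_of_notMem h3 (Set.toFinite _)] at h1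
  rw [Nat.card_coe_set_eq]
  omega

local notation "H" => Cfsg.hermForm 3 F q

/-- the orthogonal complement of a hyperbolic plane of `F³` is anisotropic -/
theorem eq_zero_of_perp3 (hF : Fintype.card F = q ^ 2) (x y d : Fin 3 → F) (hxx : H x x = 0)
    (hyy : H y y = 0) (hxy : H x y ≠ 0) (hdx : H d x = 0) (hdy : H d y = 0) (hdd : H d d = 0) :
    d = 0 := by
  by_contra hd0
  have hyx : H y x ≠ 0 := fun h => hxy (hermForm_eq_zero_comm hF h)
  have hli : LinearIndependent F ![x, y, d] := by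
    rw [Fintype.linearIndependent_iff]
    intro g hg
    rw [Fin.sum_univ_three] at hg
    simp only [Matrix.cons_val_zero, Matrix.cons_val_one, Matrix.cons_val_two, Matrix.head_cons,
      Matrix.tail_cons, Matrix.cons_val] at hg
    have e0 : g 0 = 0 := by
      have := congrArg (fun v => H v y) hg
      simp only [hermForm_add_left, hermForm_smul_left, hyy, hdy, hermForm_zero_left, mul_zero,
        add_zero] at this
      exact (mul_eq_zero.mp this).resolve_right hxy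
    have e1 : g 1 = 0 := by
      have := congrArg (fun v => H v x) hg
      simp only [hermForm_add_left, hermForm_smul_left, hxx, hdx, hermForm_zero_left, mul_zero,
        add_zero, zero_add] at this
      exact (mul_eq_zero.mp this).resolve_right hyx
    have e2 : g 2 = 0 := by
      rw [e0, e1, zero_smul, zero_smul, zero_add, zero_add] at hg
      exact (smul_eq_zero.mp hg).resolve_right hd0
    intro i
    fin_cases i
    · exact e0
    · exact e1
    · exact e2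
  have hspan : Submodule.span F (Set.range ![x, y, d]) = ⊤ :=
    hli.span_eq_top_of_card_eq_finrank' (by simp)
  obtain ⟨v, hv⟩ := exists_hermForm_ne_zero hF hd0
  apply hv
  have hmem : v ∈ Submodule.span F (Set.range ![x, y, d]) := by rw [hspan]; trivial
  clear hv
  induction hmem using Submodule.span_induction with
  | mem z hz =>
    obtain ⟨i, rfl⟩ := hz
    fin_cases i
    · exact hermForm_eq_zero_comm hF hdx
    · exact hermForm_eq_zero_comm hF hdy
    · exact hdd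
  | zero => exact hermForm_zero_left _
  | add a b _ _ ha hb => rw [hermForm_add_left, ha, hb, add_zero]
  | smul c a _ ha => rw [hermForm_smul_left, ha, mul_zero]

theorem NO_five (hq : 2 ≤ q) : NO q 5 = (q ^ 5 + 1) * (q ^ 2 + 1) := by
  unfold NO
  have h4 : 4 ≤ q ^ 2 := by nlinarith
  have hpos : 0 < q ^ 2 - 1 := by omega
  have e : q ^ (5 - 1) - 1 = (q ^ 2 + 1) * (q ^ 2 - 1) := by
    obtain ⟨Q, hQ⟩ : ∃ Q, q ^ 2 = Q + 1 := ⟨q ^ 2 - 1, by omega⟩
    have : q ^ (5 - 1) = (q ^ 2) ^ 2 := by rw [← pow_mul]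
    rw [this, hQ, Nat.add_sub_cancel]
    have : (Q + 1) ^ 2 = (Q + 1 + 1) * Q + 1 := by ring
    rw [this, Nat.add_sub_cancel]
  rw [e, ← mul_assoc, Nat.mul_div_cancel _ hpos]

theorem arith (hq : 2 ≤ q) : q ^ 2 * ((q ^ 5 + 1) * (q ^ 2 + 1)) ≤ q ^ 7 * (q ^ 3 + 1) := by
  have h1 : q ^ 2 + 1 ≤ q ^ 7 := by
    have a1 : 1 ≤ q ^ 2 := Nat.one_le_pow _ _ (by omega)
    have a2 : 2 * q ^ 2 ≤ q ^ 3 := by
      rw [pow_succ q 2, mul_comm]; exact Nat.mul_le_mul_left _ hq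
    have a3 : q ^ 3 ≤ q ^ 7 := Nat.pow_le_pow_right (by omega) (by norm_num)
    omega
  have h2 : 2 * q ^ 7 ≤ q ^ 8 := by
    rw [pow_succ q 7, mul_comm]; exact Nat.mul_le_mul_left _ hq
  have h3 : (q ^ 5 + 1) * (q ^ 2 + 1) ≤ q ^ 5 * (q ^ 3 + 1) := by
    have : (q ^ 5 + 1) * (q ^ 2 + 1) = q ^ 7 + q ^ 5 + q ^ 2 + 1 := by ring
    have e2 : q ^ 5 * (q ^ 3 + 1) = q ^ 8 + q ^ 5 := by ring
    omega
  calc q ^ 2 * ((q ^ 5 + 1) * (q ^ 2 + 1)) ≤ q ^ 2 * (q ^ 5 * (q ^ 3 + 1)) :=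
        Nat.mul_le_mul_left _ h3
    _ = q ^ 7 * (q ^ 3 + 1) := by ring

end EVEN3

open EVEN3 in
/-- [oEVEN3] -/
theorem wb3_even (hF : Fintype.card F = q ^ 2) (h2 : (2 : F) = 0) (D : AddSubgroup (Fin 3 → F))
    (R : Subgroup (Cfsg.SU 3 F q)) (hD0 : D ≠ ⊥)
    (hDq : ∀ c : F, c ^ q = c → ∀ w ∈ D, c • w ∈ D)
    (hD : ∀ w ∈ D, ∀ w' ∈ D, (Cfsg.hermForm 3 F q w w') ^ q = Cfsg.hermForm 3 F q w w')
    (hiso : ∀ w ∈ D, Cfsg.hermForm 3 F q w w = 0)
    (hR : ∀ l ∈ R, ∀ w ∈ D, l.1.1 *ᵥ w ∈ D)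
    (hrad : ∀ x ∈ D, (∀ y ∈ D, Cfsg.hermForm 3 F q x y = 0) → x = 0) :
    Nat.card D * NO q 5 ≤ q ^ 7 * R.index := by
  have hq := two_le_of_card_sq hF
  obtain ⟨x, hxD, hx0⟩ : ∃ x ∈ D, x ≠ 0 := by
    by_contra hcon
    push Not at hcon
    exact hD0 ((AddSubgroup.eq_bot_iff_forall _).mpr hcon)
  obtain ⟨y, hyD, hxy⟩ : ∃ y ∈ D, Cfsg.hermForm 3 F q x y ≠ 0 := by
    by_contra hcon
    push Not at hcon
    exact hx0 (hrad x hxD hcon)
  have hxx := hiso x hxD
  have hyy := hiso y hyD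
  -- `|D| ≤ q²`
  have hcard : Nat.card D ≤ q ^ 2 := by
    have h1 : Nat.card ({c : F // c ^ q = c} × {c : F // c ^ q = c}) = q ^ 2 := by
      rw [Nat.card_prod, card_Fq hF, sq]
    rw [← h1]
    refine Nat.card_le_card_of_injective (fun d : D =>
      ((⟨Cfsg.hermForm 3 F q d.1 x, hD d.1 d.2 x hxD⟩ : {c : F // c ^ q = c}),
        (⟨Cfsg.hermForm 3 F q d.1 y, hD d.1 d.2 y hyD⟩ : {c : F // c ^ q = c}))) ?_
    intro d d' hdd
    simp only [Prod.mk.injEq, Subtype.mk.injEq] at hdd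
    obtain ⟨e1, e2⟩ := hdd
    have h0 := eq_zero_of_perp3 hF x y (d.1 - d'.1) hxx hyy hxy
      (by rw [hermForm_sub_left, e1, sub_self]) (by rw [hermForm_sub_left, e2, sub_self])
      (hiso _ (D.sub_mem d.2 d'.2))
    exact Subtype.ext (sub_eq_zero.mp h0)
  -- the orbit inequality
  let _ := suAct 3 F q
  have horb := Cfsg.Agent.Lib.Helper54.MinSU.orb2 (G := Cfsg.SU 3 F q) x (D : Set (Fin 3 → F)) hxD
    R ⊥ (fun g hg y hy => hR g hg y hy) (fun g hg => by
      rw [Subgroup.mem_bot] at hg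
      rw [hg, one_smul])
  have hcardorb : Nat.card (MulAction.orbit (Cfsg.SU 3 F q) x) = (q ^ 3 + 1) * (q ^ (3 - 1) - 1) :=
    card_orbit_iso_odd hF (by norm_num) (by decide) x hx0 hxx
  rw [hcardorb, Subgroup.relIndex_bot_right, mul_one] at horb
  have hinter : Nat.card ((D : Set (Fin 3 → F)) ∩ MulAction.orbit (Cfsg.SU 3 F q) x : Set _) + 1
      ≤ Nat.card D := by
    have hsub : insert 0 ((D : Set (Fin 3 → F)) ∩ MulAction.orbit (Cfsg.SU 3 F q) x)
        ⊆ (D : Set (Fin 3 → F)) := by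
      intro v hv
      rcases hv with rfl | hv
      · exact D.zero_mem
      · exact hv.1
    have h0 : (0 : Fin 3 → F) ∉ (D : Set (Fin 3 → F)) ∩ MulAction.orbit (Cfsg.SU 3 F q) x := by
      intro h
      exact ((mem_orbit_iso hF (by norm_num) x hx0 hxx 0).1 h.2).1 rfl
    have h1 := Set.ncard_le_ncard hsub (Set.toFinite _)
    rw [Set.ncard_insert_of_notMem h0 (Set.toFinite _)] at h1
    exact h1
  have h4 : 4 ≤ q ^ 2 := by nlinarith
  have hidx : q ^ 3 + 1 ≤ R.index := by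
    have h5 : (q ^ 3 + 1) * (q ^ 2 - 1) ≤ R.index * (q ^ 2 - 1) :=
      horb.trans (Nat.mul_le_mul_left _ (by omega))
    exact Nat.le_of_mul_le_mul_right h5 (by omega)
  rw [NO_five hq]
  calc Nat.card D * ((q ^ 5 + 1) * (q ^ 2 + 1)) ≤ q ^ 2 * ((q ^ 5 + 1) * (q ^ 2 + 1)) :=
        Nat.mul_le_mul_right _ hcard
    _ ≤ q ^ 7 * (q ^ 3 + 1) := arith hq
    _ ≤ q ^ 7 * R.index := Nat.mul_le_mul_left _ hidx

end Cfsg.Agent.Lib.Helper15.MinSU.O
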