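import Mathlib
import Cfsg.Agent.Lib.Helper83.MinSU.DefsO
import Cfsg.Agent.Lib.Helper15.MinSU.BIG
import Cfsg.Agent.Lib.Helper15.MinSU.oEVEN3
import Cfsg.Agent.Lib.Helper5.SUOrder
import Cfsg.Agent.Lib.Helper5.GUOrder

/-! # S2151 farm (helper83), piece [oE3], auxiliary lemmas (helper15) -/

set_option autoImplicit false

namespace Cfsg.Agent.Lib.Helper15.MinSU.O

open Matrix Cfsg.Agent.Lib.Helper13 Cfsg.Agent.Lib.Helper5 Cfsg.Agent.Lib.Helper57.RootSU
  Cfsg.Agent.Lib.Helper83.MinSU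

variable {F : Type*} [Field F] [Fintype F] {m n : ℕ}

namespace E3

theorem two_eq_zero (hF : Fintype.card F = 2 ^ 2) : (2 : F) = 0 := by
  have h := FiniteField.cast_card_eq_zero F
  rw [hF] at h
  have h4 : (2 : F) ^ 2 = 0 := by
    push_cast at h
    have e : (2 : F) ^ 2 = 4 := by norm_num
    rw [e]
    exact h
  exact pow_eq_zero_iff (by norm_num) |>.mp h4

theorem one_skew (hF : Fintype.card F = 2 ^ 2) : (1 : F) + 1 ^ 2 = 0 := by
  have := two_eq_zero hF
  linear_combination this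

theorem norm_eq_one (hF : Fintype.card F = 2 ^ 2) (w : Fin m → F)
    (hw : Cfsg.hermForm m F 2 w w ≠ 0) : Cfsg.hermForm m F 2 w w = 1 := by
  have h1 := hermForm_self_pow hF w
  have h2 : Cfsg.hermForm m F 2 w w * (Cfsg.hermForm m F 2 w w - 1) = 0 := by
    linear_combination h1
  rcases mul_eq_zero.mp h2 with h | h
  · exact absurd h hw
  · exact sub_eq_zero.mp h

/-- the long root elements of `SU_3(2)` are squares -/
theorem exists_sq (hF : Fintype.card F = 2 ^ 2) (y : Fin 3 → F) (hy0 : y ≠ 0)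
    (hy : Cfsg.hermForm 3 F 2 y y = 0) : ∃ g : Cfsg.SU 3 F 2, g * g = ut hF y 1 := by
  have h2F := two_eq_zero hF
  obtain ⟨b, hb⟩ := exists_hermForm_ne_zero hF hy0
  obtain ⟨l, hl⟩ := exists_isotropic_add_smul hF (u := y) (a := b) hy hb
  have hy'y : Cfsg.hermForm 3 F 2 (b + l • y) y ≠ 0 := by
    rw [hermForm_add_left, hermForm_smul_left, hy, mul_zero, add_zero]; exact hb
  have hyy' : Cfsg.hermForm 3 F 2 y (b + l • y) ≠ 0 :=
    fun h => hy'y (hermForm_eq_zero_comm hF h)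
  have hker := BIG.card_ker_phi hF (m := 3) (by norm_num) y (b + l • y)
  obtain ⟨z, hz, hz0⟩ : ∃ z ∈ (BIG.phi (q := 2) y (b + l • y)).ker, z ≠ 0 := by
    by_contra hcon
    push Not at hcon
    have : (BIG.phi (q := 2) y (b + l • y)).ker = ⊥ := (AddSubgroup.eq_bot_iff_forall _).mpr hcon
    rw [this, AddSubgroup.card_bot] at hker
    norm_num at hker
  have hz' : (Cfsg.hermForm 3 F 2 z y, Cfsg.hermForm 3 F 2 z (b + l • y)) = 0 := hz
  have hzy : Cfsg.hermForm 3 F 2 z y = 0 := congrArg Prod.fst hz'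
  have hzy' : Cfsg.hermForm 3 F 2 z (b + l • y) = 0 := congrArg Prod.snd hz'
  have hzz0 : Cfsg.hermForm 3 F 2 z z ≠ 0 := fun h =>
    hz0 (EVEN3.eq_zero_of_perp3 hF y (b + l • y) z hy hl hyy' hzy hzy' h)
  have hzz := norm_eq_one hF z hzz0
  have hyz : Cfsg.hermForm 3 F 2 y z = 0 := hermForm_eq_zero_comm hF hzy
  obtain ⟨a, ha⟩ := exists_tr hF (-Cfsg.hermForm 3 F 2 z z)
    (by rw [neg_pow_q hF, hermForm_self_pow hF])
  have ha' : a + a ^ 2 + Cfsg.hermForm 3 F 2 z z = 0 := by rw [ha]; ring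
  refine ⟨eSU hF y z a hy hzy ha', ?_⟩
  apply SU_ext_mulVec
  intro x
  rw [SU_mul_mulVec, eSU_mulVec, eSU_mulVec, ut_mulVec hF hy (one_skew hF)]
  simp only [hermForm_add_left, hermForm_sub_left, hermForm_smul_left, hy, hzy, hyz, hzz]
  funext i
  simp only [Pi.add_apply, Pi.sub_apply, Pi.smul_apply, smul_eq_mul]
  linear_combination (Cfsg.hermForm 3 F 2 x y * z i - Cfsg.hermForm 3 F 2 x z * y i
    + a * Cfsg.hermForm 3 F 2 x y * y i - Cfsg.hermForm 3 F 2 x y * y i) * h2F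

theorem card_SU3 (hF : Fintype.card F = 2 ^ 2) : Nat.card (Cfsg.SU 3 F 2) = 216 := by
  have h : (2 + 1) * Nat.card (Cfsg.SU 3 F 2) = 648 := by
    rw [card_SU_mul hF (by norm_num), card_GU hF 3]
    simp [Finset.prod_range_succ, Nat.even_add_one]
  omega

/-- a finite set smaller than `D` misses an element of `D` -/
theorem exists_notMem {V : Type*} [AddGroup V] [Finite V] [DecidableEq V] (D : AddSubgroup V)
    (s : Finset V) (h : s.card < Nat.card D) : ∃ w ∈ D, w ∉ s := by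
  by_contra hcon
  push Not at hcon
  have hsub : (D : Set V) ⊆ (s : Set V) := fun w hw => hcon w hw
  have h1 := Set.ncard_le_ncard hsub s.finite_toSet
  rw [Set.ncard_coe_finset] at h1
  have h2 : (D : Set V).ncard = Nat.card D := rfl
  omega

/-- an additive subgroup all of whose nonzero vectors are nonisotropic has at most 4 elements -/
theorem card_le_four (hF : Fintype.card F = 2 ^ 2) (D : AddSubgroup (Fin m → F))
    (hD : ∀ w ∈ D, Cfsg.hermForm m F 2 w w = 0 → w = 0) : Nat.card D ≤ 4 := by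
  classical
  have h2F := two_eq_zero hF
  by_contra hcard
  push Not at hcard
  have hN : ∀ w ∈ D, w ≠ 0 → Cfsg.hermForm m F 2 w w = 1 := fun w hw hw0 =>
    norm_eq_one hF w (fun h => hw0 (hD w hw h))
  have hadd : ∀ w w' : Fin m → F, w + w' = 0 → w = w' := by
    intro w w' h
    have h1 : w' + w' = 0 := by
      rw [← two_smul F, h2F, zero_smul]
    exact add_right_cancel (h.trans h1.symm)
  have hT : ∀ w ∈ D, ∀ w' ∈ D, w ≠ 0 → w' ≠ 0 → w ≠ w' →
      Cfsg.hermForm m F 2 w w' + Cfsg.hermForm m F 2 w' w = 1 := by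
    intro w hw w' hw' h0 h0' hne
    have h1 := hN (w + w') (D.add_mem hw hw') (fun h => hne (hadd w w' h))
    simp only [hermForm_add_left, hermForm_add_right hF, hN w hw h0, hN w' hw' h0'] at h1
    linear_combination h1 - h2F
  obtain ⟨w1, hw1, h1⟩ := exists_notMem D {0} (by rw [Finset.card_singleton]; omega)
  obtain ⟨w2, hw2, h2⟩ := exists_notMem D {0, w1} (lt_of_le_of_lt Finset.card_le_two (by omega))
  obtain ⟨w3, hw3, h3⟩ := exists_notMem D {0, w1, w2, w1 + w2}
    (lt_of_le_of_lt Finset.card_le_four hcard)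
  simp only [Finset.mem_insert, Finset.mem_singleton, not_or] at h1 h2 h3
  obtain ⟨h20, h21⟩ := h2
  obtain ⟨h30, h31, h32, h33⟩ := h3
  have e12 := hT w1 hw1 w2 hw2 h1 h20 (Ne.symm h21)
  have e13 := hT w1 hw1 w3 hw3 h1 h30 (Ne.symm h31)
  have e23 := hT w2 hw2 w3 hw3 h20 h30 (Ne.symm h32)
  have hne : w1 + w2 + w3 ≠ 0 := fun h => h33 (hadd _ _ h).symm
  have h4 := hN (w1 + w2 + w3) (D.add_mem (D.add_mem hw1 hw2) hw3) hne
  simp only [hermForm_add_left, hermForm_add_right hF, hN w1 hw1 h1, hN w2 hw2 h20,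
    hN w3 hw3 h30] at h4
  have : (1 : F) = 0 := by linear_combination h4 - e12 - e13 - e23 - 2 * h2F
  exact one_ne_zero this

end E3

end Cfsg.Agent.Lib.Helper15.MinSU.O
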