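import Mathlib
import Cfsg.Agent.Lib.Helper83.MinSU.DefsO
import Cfsg.Agent.Lib.Helper15.MinSU.oE3a
import Cfsg.Agent.Lib.Helper15.MinSU.IDX
import Cfsg.Agent.Lib.Helper22.MinSU.oLOC2
import Cfsg.Agent.Lib.Helper22.MinSU.INV
import Cfsg.Agent.Lib.Helper8.MinSU.U1i
import Cfsg.Agent.Lib.Helper81.MinSU.G1
import Cfsg.Agent.Lib.Helper63.MinSU.Tools

/-! # S2151 farm (helper83), piece [oE3] (helper15) -/

set_option autoImplicit false

namespace Cfsg.Agent.Lib.Helper15.MinSU.O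

open Matrix Cfsg.Agent.Lib.Helper13 Cfsg.Agent.Lib.Helper5 Cfsg.Agent.Lib.Helper57.RootSU
  Cfsg.Agent.Lib.Helper83.MinSU Cfsg.Agent.Lib.Helper63.MinSU Cfsg.Agent.Lib.Helper81.MinSU
  Cfsg.Agent.Lib.Helper8.MinSU Cfsg.Agent.Lib.Helper22.MinSU

variable {F : Type*} [Field F] [Fintype F]

namespace E3

local notation "H5" => Cfsg.hermForm (3 + 2) F 2
local notation "H3" => Cfsg.hermForm 3 F 2

/-- the situation: `e ∈ RS K` and the structure of the stabiliser of `⟨e⟩` -/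
structure Ctx (hF : Fintype.card F = 2 ^ 2) (e : Fin (3 + 2) → F) (L : ULoc 3 F 2 (Pe 2 e))
    (K : Subgroup (Cfsg.SU (3 + 2) F 2)) : Prop where
  he0 : e ≠ 0
  hee : H5 e e = 0
  h1 : ∀ a : F, a + a ^ 2 = 0 → ((L.rho 0 a : Pe 2 e) : Cfsg.SU (3 + 2) F 2) = ut hF e a
  h5 : ∀ g : Pe 2 e, (g : Cfsg.SU (3 + 2) F 2).1.1 *ᵥ e = (L.lam g : F) • e
  h6 : ∀ (w : Fin 3 → F) (a : F), Val 2 w a → ∀ x : Fin (3 + 2) → F,
        ((L.rho w a : Pe 2 e) : Cfsg.SU (3 + 2) F 2).1.1 *ᵥ x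
          = x + H5 x e • iota w - H5 x (iota w) • e + (a * H5 x e) • e
  h8 : ∀ w : Fin 3 → F, H5 (iota w) e = 0
  hP : Nat.card {u : Fin (3 + 2) → F // u ≠ 0 ∧ u ∈ RS hF K} = 99
  hperp : ∀ u u' : Fin (3 + 2) → F, u ≠ 0 → u ∈ RS hF K → u' ∈ RS hF K →
      H5 u' u = 0 → ∃ c : F, u' = c • u
  heK : e ∈ RS hF K

variable {hF : Fintype.card F = 2 ^ 2} {e : Fin (3 + 2) → F} {L : ULoc 3 F 2 (Pe 2 e)}
  {K : Subgroup (Cfsg.SU (3 + 2) F 2)}

/-- an element of `RS` with `h(y', e) = 1` -/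
theorem exists_partner (C : Ctx hF e L K) : ∃ y' ∈ RS hF K, H5 y' e = 1 := by
  obtain ⟨he0, hee, h1, h5, h6, h8, hP, hperp, heK⟩ := C
  obtain ⟨y, hy0, hyK, hy⟩ : ∃ y : Fin (3 + 2) → F, y ≠ 0 ∧ y ∈ RS hF K ∧ ¬ ∃ c : F, y = c • e := by
    by_contra hcon
    push Not at hcon
    choose c hc using hcon
    have hinj : Function.Injective
        (fun u : {u : Fin (3 + 2) → F // u ≠ 0 ∧ u ∈ RS hF K} => c u.1 u.2.1 u.2.2) := by
      intro u u' huu
      apply Subtype.ext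
      rw [hc u.1 u.2.1 u.2.2, hc u'.1 u'.2.1 u'.2.2]
      exact congrArg (· • e) huu
    have := Nat.card_le_card_of_injective _ hinj
    rw [hP, Nat.card_eq_fintype_card, hF] at this
    norm_num at this
  have hye : H5 y e ≠ 0 := fun h => hy (hperp e y he0 heK hyK h)
  refine ⟨(H5 y e)⁻¹ • y, (rs_inv hF K y hyK).2 _, ?_⟩
  rw [hermForm_smul_left, inv_mul_cancel₀ hye]

/-- the CLAIM: the nonzero elements of `Bb` are nonisotropic -/
theorem claim (C : Ctx hF e L K) (y' : Fin (3 + 2) → F) (hy'K : y' ∈ RS hF K) (hy'e : H5 y' e = 1) (w : Fin 3 → F)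
    (hw : w ∈ L.Bb hF (K.subgroupOf (Pe 2 e))) (hww : H3 w w = 0) : w = 0 := by
  obtain ⟨he0, hee, h1, h5, h6, h8, hP, hperp, heK⟩ := C
  have h2F := two_eq_zero hF
  obtain ⟨a, hv, hs⟩ := hw
  have hy'0 : y' ≠ 0 := by
    rintro rfl
    rw [hermForm_zero_left] at hy'e
    exact zero_ne_one hy'e
  have hey' : H5 e y' = 1 := by rw [← hermForm_swap hF, hy'e, one_pow]
  set t := H5 y' (iota w) with ht
  have hty : H5 (iota w) y' = t ^ 2 := by rw [ht, hermForm_swap hF]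
  have ha : a + a ^ 2 = 0 := by
    unfold Val at hv
    rw [hww, add_zero] at hv
    exact hv
  have hsk' : (t + t ^ 2) + (t + t ^ 2) ^ 2 = 0 := by
    rw [add_pow_q hF, pow_q_pow_q hF]
    linear_combination (t + t ^ 2) * h2F
  have hv' : Val 2 w (t + t ^ 2) := by
    unfold Val
    rw [hww, add_zero]
    exact hsk'
  have hd : (t + t ^ 2 - a) + (t + t ^ 2 - a) ^ 2 = 0 := by
    rw [sub_pow_q hF]
    linear_combination hsk' - ha
  have hs0 : L.rho 0 (t + t ^ 2 - a) ∈ K.subgroupOf (Pe 2 e) := by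
    rw [Subgroup.mem_subgroupOf, h1 _ hd]
    exact heK.2 _ hd
  have hs' : L.rho w (t + t ^ 2) ∈ K.subgroupOf (Pe 2 e) := by
    have h := (K.subgroupOf (Pe 2 e)).mul_mem hs hs0
    rw [L.rho_mul _ _ _ _ hv (Val.of_skew hF hd), add_zero, hermForm_zero_left, sub_zero] at h
    have e1 : a + (t + t ^ 2 - a) = t + t ^ 2 := by ring
    rwa [e1] at h
  rw [Subgroup.mem_subgroupOf] at hs'
  have hsy := (rs_inv hF K y' hy'K).1 _ hs'
  rw [h6 w _ hv' y', hy'e, ← ht] at hsy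
  have hortho : H5 (y' + (1 : F) • iota w - t • e + ((t + t ^ 2) * 1) • e) y' = 0 := by
    simp only [hermForm_add_left, hermForm_sub_left, hermForm_smul_left, hy'K.1, hty, hey']
    linear_combination t ^ 2 * h2F
  obtain ⟨c, hc⟩ := hperp y' _ hy'0 hy'K hsy hortho
  have hc1 : c = 1 := by
    have := congrArg (fun v => H5 v e) hc
    simp only [hermForm_add_left, hermForm_sub_left, hermForm_smul_left, hy'e, h8, hee] at this
    linear_combination -this
  rw [hc1] at hc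
  have hiw : iota w = (t - (t + t ^ 2) * 1) • e := by
    have this := sub_eq_zero.mpr hc
    rw [sub_smul]
    have h' : iota w - (t • e - ((t + t ^ 2) * 1) • e) = 0 := by
      rw [← this]; module
    exact sub_eq_zero.mp h'
  by_contra hw0
  obtain ⟨x, hx⟩ := exists_hermForm_ne_zero hF hw0
  apply hx
  rw [← herm_iota_iota hF, hiw, hermForm_smul_right, h8, mul_zero]

/-- orbit-stabiliser -/
theorem stab_big (C : Ctx hF e L K) (hK : Nat.card K = 85536) :
    85536 ≤ Nat.card {g : Pe 2 e // g ∈ K.subgroupOf (Pe 2 e) ∧ L.lam g = 1} * 99 := by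
  obtain ⟨he0, hee, -, h5, h6, h8, hP, hperp, heK⟩ := C
  letI := suAct (3 + 2) F 2
  have hfin : Finite (Cfsg.SU (3 + 2) F 2) := Subtype.finite
  have h1 := MulAction.index_stabilizer K e
  have h2 := (MulAction.stabilizer K e).index_mul_card
  have h3 : (MulAction.orbit K e).ncard ≤ 99 := by
    rw [← hP]
    have hsub : MulAction.orbit K e ⊆ {u : Fin (3 + 2) → F | u ≠ 0 ∧ u ∈ RS hF K} := by
      rintro _ ⟨k, rfl⟩
      exact ⟨Cfsg.Agent.Lib.Helper57.RootSU.su_mulVec_ne_zero k.1 he0, (rs_inv hF K e heK).1 k.1 k.2⟩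
    exact Set.ncard_le_ncard hsub (Set.toFinite _)
  have h4 : Nat.card (MulAction.stabilizer K e)
      ≤ Nat.card {g : Pe 2 e // g ∈ K.subgroupOf (Pe 2 e) ∧ L.lam g = 1} := by
    have hfix : ∀ k : MulAction.stabilizer K e, (k.1.1 : Cfsg.SU (3 + 2) F 2).1.1 *ᵥ e = e :=
      fun k => k.2
    refine Nat.card_le_card_of_injective (fun k =>
      ⟨⟨k.1.1, mem_Pe_of_smul k.1.1 1 one_ne_zero (by rw [hfix k, one_smul])⟩, ?_, ?_⟩) ?_
    · rw [Subgroup.mem_subgroupOf]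
      exact k.1.2
    · generalize_proofs hmem
      have h := h5 ⟨k.1.1, hmem⟩
      have h' : e = ((L.lam ⟨k.1.1, hmem⟩ : Fˣ) : F) • e := (hfix k).symm.trans h
      have h'' : (((L.lam ⟨k.1.1, hmem⟩ : Fˣ) : F) - 1) • e = 0 := by
        rw [sub_smul, one_smul, ← h', sub_self]
      exact Units.ext (sub_eq_zero.mp ((smul_eq_zero.mp h'').resolve_right he0))
    · intro k k' hkk
      have := congrArg (fun z : {g : Pe 2 e // g ∈ K.subgroupOf (Pe 2 e) ∧ L.lam g = 1} =>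
        (z.1.1 : Cfsg.SU (3 + 2) F 2)) hkk
      exact Subtype.ext (Subtype.ext this)
  rw [hK, h1] at h2
  calc 85536 = (MulAction.orbit K e).ncard * Nat.card (MulAction.stabilizer K e) := h2.symm
    _ ≤ 99 * Nat.card {g : Pe 2 e // g ∈ K.subgroupOf (Pe 2 e) ∧ L.lam g = 1} :=
      Nat.mul_le_mul h3 h4
    _ = _ := mul_comm _ _

theorem ovoid_false_e (C : Ctx hF e L K) (hK : Nat.card K = 85536) : False := by
  have hfin : Finite (Cfsg.SU (3 + 2) F 2) := Subtype.finite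
  have hfin3 : Finite (Cfsg.SU 3 F 2) := Subtype.finite
  set S := K.subgroupOf (Pe 2 e) with hS
  obtain ⟨y', hy'K, hy'e⟩ := exists_partner C
  have hclaim := claim C y' hy'K hy'e
  have hbig := stab_big C hK
  rw [IDX.lvl2a L S hF, IDX.lvl2b L S hF, IDX.lvl3 L S hF] at hbig
  have hA : Nat.card (L.A hF S) ≤ 2 := by
    have hle : L.A hF S ≤ Sk hF := fun a ha => ha.1
    have := Nat.card_le_card_of_injective _ (AddSubgroup.inclusion_injective hle)
    rwa [card_Sk hF] at this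
  have hB : Nat.card (L.Bb hF S) ≤ 4 := card_le_four hF _ hclaim
  have hS1 := (L.S1 hF S).index_mul_card
  rw [card_SU3 hF] at hS1
  have hS1pos : 0 < Nat.card (L.S1 hF S) := Nat.card_pos
  have hS1le : Nat.card (L.S1 hF S) ≤ 216 := by
    have : 0 < (L.S1 hF S).index := Nat.pos_of_ne_zero Subgroup.index_ne_zero_of_finite
    nlinarith
  -- `Bb ≠ ⊥`
  obtain ⟨w, hw, hw0⟩ : ∃ w ∈ L.Bb hF S, w ≠ 0 := by
    by_contra hcon
    push Not at hcon
    have hbot : L.Bb hF S = ⊥ := (AddSubgroup.eq_bot_iff_forall _).mpr hcon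
    rw [hbot, AddSubgroup.card_bot, one_mul] at hbig
    have : Nat.card (L.S1 hF S) * Nat.card (L.A hF S) ≤ 216 * 2 := Nat.mul_le_mul hS1le hA
    omega
  -- the index of `S1` is at most 2
  have hidx : (L.S1 hF S).index ≤ 2 := by
    have h3 : Nat.card (L.Bb hF S) * Nat.card (L.A hF S) ≤ 4 * 2 := Nat.mul_le_mul hB hA
    have h4 : Nat.card (L.S1 hF S) * (Nat.card (L.Bb hF S) * Nat.card (L.A hF S))
        ≤ Nat.card (L.S1 hF S) * (4 * 2) := Nat.mul_le_mul_left _ h3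
    have h5 : 108 ≤ Nat.card (L.S1 hF S) := by omega
    by_contra hcon
    push Not at hcon
    have : 3 * 108 ≤ (L.S1 hF S).index * Nat.card (L.S1 hF S) := Nat.mul_le_mul hcon h5
    omega
  have hsq : ∀ g : Cfsg.SU 3 F 2, g * g ∈ L.S1 hF S := by
    intro g
    have h0 : (L.S1 hF S).index ≠ 0 := Subgroup.index_ne_zero_of_finite
    rcases (by omega : (L.S1 hF S).index = 1 ∨ (L.S1 hF S).index = 2) with h | h
    · rw [Subgroup.index_eq_one.mp h]; trivial
    · exact Subgroup.mul_self_mem_of_index_two h g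
  have hww : H3 w w ≠ 0 := fun h => hw0 (hclaim w hw h)
  obtain ⟨y, hy, hwy⟩ := BIG.exists_iso_not_perp hF (by norm_num) w hww
  have hy0 : y ≠ 0 := by
    rintro rfl
    exact hwy (hermForm_zero_right hF w)
  obtain ⟨g, hg⟩ := exists_sq hF y hy0 hy
  have hut : ut hF y 1 ∈ L.S1 hF S := hg ▸ hsq g
  have h7 := (L.Bb hF S).sub_mem (Bb_invariant L S hF _ hut w hw) hw
  rw [ut_mulVec hF hy (one_skew hF), add_sub_cancel_left] at h7
  have h8' := hclaim _ h7 (by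
    rw [hermForm_smul_left, hermForm_smul_right, hy, mul_zero, mul_zero])
  exact smul_ne_zero (mul_ne_zero one_ne_zero hwy) hy0 h8'

/-- `RS` of a conjugate subgroup -/
theorem mem_RS_comap {n : ℕ} (hF : Fintype.card F = 2 ^ 2) (K : Subgroup (Cfsg.SU n F 2))
    (g : Cfsg.SU n F 2) (x : Fin n → F) :
    x ∈ RS hF (K.comap (MulAut.conj g).toMonoidHom) ↔ g.1.1 *ᵥ x ∈ RS hF K := by
  constructor
  · rintro ⟨hx, h⟩
    refine ⟨by rw [SU_preserves, hx], fun c hc => ?_⟩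
    rw [← ut_conj hF g hx hc]
    exact h c hc
  · rintro ⟨hx, h⟩
    rw [SU_preserves] at hx
    refine ⟨hx, fun c hc => ?_⟩
    have := h c hc
    rw [← ut_conj hF g hx hc] at this
    exact this

/-- the vector space automorphism induced by `g` -/
def vecEquiv {n : ℕ} (g : Cfsg.SU n F 2) : (Fin n → F) ≃ (Fin n → F) where
  toFun x := g.1.1 *ᵥ x
  invFun x := (g⁻¹).1.1 *ᵥ x
  left_inv x := SU_inv_mulVec_mulVec g x
  right_inv x := SU_mulVec_inv_mulVec g x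

theorem ovoid_false' (hF : Fintype.card F = 2 ^ 2) (K : Subgroup (Cfsg.SU (3 + 2) F 2))
    (hK : Nat.card K = 85536)
    (hP : Nat.card {u : Fin (3 + 2) → F // u ≠ 0 ∧ u ∈ RS hF K} = 99)
    (hperp : ∀ u u' : Fin (3 + 2) → F, u ≠ 0 → u ∈ RS hF K → u' ∈ RS hF K →
      H5 u' u = 0 → ∃ c : F, u' = c • u) : False := by
  obtain ⟨e, L, he0, hee, h1, -, h5, h6, -, h8⟩ :=
    Cfsg.Agent.Lib.Helper22.MinSU.O.exists_loc2 hF 3 (by norm_num)
  obtain ⟨⟨u, hu0, huK⟩⟩ : Nonempty {u : Fin (3 + 2) → F // u ≠ 0 ∧ u ∈ RS hF K} := by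
    by_contra hne
    rw [not_nonempty_iff] at hne
    rw [Nat.card_of_isEmpty] at hP
    norm_num at hP
  obtain ⟨g, hg⟩ := exists_su_map hF (by norm_num) e u he0 hu0 hee huK.1
  have hne0 : ∀ x : Fin (3 + 2) → F, x ≠ 0 ↔ g.1.1 *ᵥ x ≠ 0 := by
    intro x
    constructor
    · exact fun h => Cfsg.Agent.Lib.Helper57.RootSU.su_mulVec_ne_zero g h
    · rintro h rfl
      exact h (Matrix.mulVec_zero _)
  refine ovoid_false_e (hF := hF) (e := e) (L := L) (K := K.comap (MulAut.conj g).toMonoidHom)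
    ⟨he0, hee, h1, h5, h6, h8, ?_, ?_, ?_⟩ ?_
  · rw [← hP]
    apply Nat.card_congr
    refine (vecEquiv g).subtypeEquiv ?_
    intro x
    rw [mem_RS_comap, hne0 x]
    rfl
  · intro v v' hv0 hv hv' hvv
    rw [mem_RS_comap] at hv hv'
    obtain ⟨c, hc⟩ := hperp _ _ ((hne0 v).mp hv0) hv hv' (by rw [SU_preserves]; exact hvv)
    refine ⟨c, ?_⟩
    rw [← Matrix.mulVec_smul] at hc
    exact (vecEquiv g).injective hc
  · rw [mem_RS_comap, hg]
    exact huK
  · rw [← hK]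
    apply Nat.card_congr
    exact (MulAut.conj g).toEquiv.subtypeEquiv (fun k => Iff.rfl)

end E3

/-- [oE3] -/
theorem ovoid_false (hF : Fintype.card F = 2 ^ 2) (K : Subgroup (Cfsg.SU 5 F 2))
    (hK : Nat.card K = 85536)
    (hP : Nat.card {u : Fin 5 → F // u ≠ 0 ∧ u ∈ RS hF K} = 99)
    (hperp : ∀ u u' : Fin 5 → F, u ≠ 0 → u ∈ RS hF K → u' ∈ RS hF K →
      Cfsg.hermForm 5 F 2 u' u = 0 → ∃ c : F, u' = c • u) : False :=
  E3.ovoid_false' hF K hK hP hperp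

end Cfsg.Agent.Lib.Helper15.MinSU.O
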